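import Cfsg.Agent.Lib.ClassicalForms.Ortho.Standard
import Cfsg.Agent.Lib.ClassicalLinear.SympBasic

/-!
In characteristic two the orthogonal group of `x₀² + Σ xᵢ yᵢ` is the symplectic group of the
quotient by the radical.
-/

set_option autoImplicit false

namespace CfsgLib.ClassicalForms

open QuadraticMap

variable {F : Type*} [Field F] {m : ℕ}

/-- `(z, w)` as a vector. -/
def ovec (z : F) (w : Fin m ⊕ Fin m → F) : Unit ⊕ (Fin m ⊕ Fin m) → F := Sum.elim (fun _ => z) w

/-- `Σ xᵢ yᵢ`. -/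
def hyp (w : Fin m ⊕ Fin m → F) : F := ∑ i : Fin m, w (.inl i) * w (.inr i)

lemma qOdd_ovec (z : F) (w : Fin m ⊕ Fin m → F) : qOdd m F (ovec z w) = z ^ 2 + hyp w := by
  rw [qOdd_apply]; rfl

lemma sympForm_apply (u v : Fin m ⊕ Fin m → F) :
    Cfsg.sympForm m F u v
      = ∑ i, (u (.inr i) * v (.inl i) - u (.inl i) * v (.inr i)) := by
  simp [Cfsg.sympForm, Matrix.J, Matrix.fromBlocks_mulVec, dotProduct, Fintype.sum_sum_type,
    Matrix.one_apply, Matrix.mulVec, Finset.sum_sub_distrib, Finset.sum_neg_distrib]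
  ring

lemma ovec_add (z z' : F) (w w' : Fin m ⊕ Fin m → F) :
    ovec z w + ovec z' w' = ovec (z + z') (w + w') := by
  funext i; rcases i with i | i <;> rfl

lemma ovec_smul (c z : F) (w : Fin m ⊕ Fin m → F) : c • ovec z w = ovec (c * z) (c • w) := by
  funext i; rcases i with i | i <;> rfl

lemma ovec_eta (v : Unit ⊕ (Fin m ⊕ Fin m) → F) :
    ovec (v (.inl ())) (fun i => v (.inr i)) = v := by
  funext i; rcases i with i | i <;> rfl

variable [CharP F 2]

lemma hyp_add (w w' : Fin m ⊕ Fin m → F) :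
    hyp (w + w') = hyp w + hyp w' + Cfsg.sympForm m F w w' := by
  simp only [sympForm_apply, hyp, ← Finset.sum_add_distrib, Pi.add_apply, CharTwo.sub_eq_add]
  exact Finset.sum_congr rfl fun i _ => by ring

lemma hyp_smul (c : F) (w : Fin m ⊕ Fin m → F) : hyp (c • w) = c ^ 2 * hyp w := by
  simp only [hyp, Finset.mul_sum, Pi.smul_apply, smul_eq_mul]
  exact Finset.sum_congr rfl fun i _ => by ring

lemma polar_ovec (z z' : F) (w w' : Fin m ⊕ Fin m → F) :
    polar (qOdd m F) (ovec z w) (ovec z' w') = Cfsg.sympForm m F w w' := by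
  rw [polar, ovec_add, qOdd_ovec, qOdd_ovec, qOdd_ovec, hyp_add, CharTwo.add_sq]
  ring

lemma apply_radical (g : orth (qOdd m F)) :
    (g : _ ≃ₗ[F] Unit ⊕ (Fin m ⊕ Fin m) → F) (ovec (1 : F) (0 : Fin m ⊕ Fin m → F)) = ovec (1 : F) (0 : Fin m ⊕ Fin m → F) := by
  set x := (g : _ ≃ₗ[F] Unit ⊕ (Fin m ⊕ Fin m) → F) (ovec (1 : F) (0 : Fin m ⊕ Fin m → F)) with hx
  have hpol : ∀ y, polar (qOdd m F) x y = 0 := fun y => by
    rw [← orth_apply_inv g y, hx, polar_apply,
      ← ovec_eta (((g⁻¹ : orth (qOdd m F)) : _ ≃ₗ[F] Unit ⊕ (Fin m ⊕ Fin m) → F) y), polar_ovec]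
    simp [sympForm_apply]
  have hw : (fun i => x (.inr i)) = 0 := by
    by_contra h
    obtain ⟨v, hv⟩ := CfsgLib.ClassicalLinear.exists_sympForm_eq_one h
    have := hpol (ovec 0 v)
    rw [← ovec_eta x, polar_ovec, hv] at this
    exact one_ne_zero this
  have hz : x (.inl ()) = 1 := by
    have h := orth_apply g (ovec (1 : F) (0 : Fin m ⊕ Fin m → F))
    rw [← hx, ← ovec_eta x, qOdd_ovec, qOdd_ovec, hw] at h
    simp [hyp] at h
    rcases h with h | h
    · exact h
    · rw [h, CharTwo.neg_eq]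
  rw [← ovec_eta x, hw, hz]

lemma apply_ovec (g : orth (qOdd m F)) (z : F) (w : Fin m ⊕ Fin m → F) :
    (g : _ ≃ₗ[F] Unit ⊕ (Fin m ⊕ Fin m) → F) (ovec z w)
      = ovec (z + (g : _ ≃ₗ[F] Unit ⊕ (Fin m ⊕ Fin m) → F) (ovec 0 w) (.inl ()))
          (fun i => (g : _ ≃ₗ[F] Unit ⊕ (Fin m ⊕ Fin m) → F) (ovec 0 w) (.inr i)) := by
  have h : ovec z w = z • ovec (1 : F) (0 : Fin m ⊕ Fin m → F) + ovec 0 w := by
    rw [ovec_smul, ovec_add, mul_one, add_zero, smul_zero, zero_add]
  rw [h, map_add, map_smul, apply_radical g]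
  funext i
  rcases i with i | i <;> simp [ovec]

/-- The action on the quotient by the radical, as a linear map. -/
def projW (g : orth (qOdd m F)) : (Fin m ⊕ Fin m → F) →ₗ[F] (Fin m ⊕ Fin m → F) where
  toFun w := fun i => (g : _ ≃ₗ[F] Unit ⊕ (Fin m ⊕ Fin m) → F) (ovec 0 w) (.inr i)
  map_add' w w' := by
    rw [show ovec (0 : F) (w + w') = ovec 0 w + ovec 0 w' by rw [ovec_add, add_zero], map_add]
    rfl
  map_smul' c w := by
    rw [show ovec (0 : F) (c • w) = c • ovec 0 w by rw [ovec_smul, mul_zero], map_smul]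
    rfl

lemma projW_mul (g h : orth (qOdd m F)) (w : Fin m ⊕ Fin m → F) :
    projW (g * h) w = projW g (projW h w) := by
  funext i
  show ((g * h : orth (qOdd m F)) : _ ≃ₗ[F] Unit ⊕ (Fin m ⊕ Fin m) → F) (ovec 0 w) (.inr i) = _
  rw [orth_mul_apply, apply_ovec h, apply_ovec g]
  rfl

lemma projW_one (w : Fin m ⊕ Fin m → F) : projW (1 : orth (qOdd m F)) w = w := by
  funext i
  show ((1 : orth (qOdd m F)) : _ ≃ₗ[F] Unit ⊕ (Fin m ⊕ Fin m) → F) (ovec 0 w) (.inr i) = _
  rw [orth_one_apply]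
  rfl

lemma sympForm_projW (g : orth (qOdd m F)) (u v : Fin m ⊕ Fin m → F) :
    Cfsg.sympForm m F (projW g u) (projW g v) = Cfsg.sympForm m F u v := by
  have h := polar_apply g (ovec 0 u) (ovec 0 v)
  rw [apply_ovec g 0 u, apply_ovec g 0 v, polar_ovec, polar_ovec] at h
  exact h

/-- The induced automorphism. -/
def projEquiv (g : orth (qOdd m F)) : (Fin m ⊕ Fin m → F) ≃ₗ[F] (Fin m ⊕ Fin m → F) :=
  LinearEquiv.ofLinear (projW g) (projW g⁻¹)
      (LinearMap.ext fun w => by
        rw [LinearMap.comp_apply, ← projW_mul, mul_inv_cancel, projW_one]; rfl)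
      (LinearMap.ext fun w => by
        rw [LinearMap.comp_apply, ← projW_mul, inv_mul_cancel, projW_one]; rfl)

lemma projEquiv_apply (g : orth (qOdd m F)) (w : Fin m ⊕ Fin m → F) :
    projEquiv g w = projW g w := rfl

lemma sympForm_projEquiv (g : orth (qOdd m F)) (u v : Fin m ⊕ Fin m → F) :
    Cfsg.sympForm m F (projEquiv g u) (projEquiv g v) = Cfsg.sympForm m F u v :=
  sympForm_projW g u v

/-- The map to the symplectic group. -/
noncomputable def toSp : orth (qOdd m F) →* Matrix.symplecticGroup (Fin m) F where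
  toFun g := CfsgLib.Forms.spOfEquiv (projEquiv g) (sympForm_projEquiv g)
  map_one' := CfsgLib.ClassicalLinear.sp_ext fun x => by
    rw [CfsgLib.ClassicalLinear.sp_smul_eq, CfsgLib.Forms.spOfEquiv_mulVec, one_smul,
      projEquiv_apply, projW_one]
  map_mul' g h := CfsgLib.ClassicalLinear.sp_ext fun x => by
    rw [mul_smul, CfsgLib.ClassicalLinear.sp_smul_eq, CfsgLib.Forms.spOfEquiv_mulVec,
      CfsgLib.ClassicalLinear.sp_smul_eq, CfsgLib.Forms.spOfEquiv_mulVec,
      CfsgLib.ClassicalLinear.sp_smul_eq, CfsgLib.Forms.spOfEquiv_mulVec,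
      projEquiv_apply, projEquiv_apply, projEquiv_apply, projW_mul]

lemma toSp_smul (g : orth (qOdd m F)) (w : Fin m ⊕ Fin m → F) : toSp g • w = projW g w := by
  rw [CfsgLib.ClassicalLinear.sp_smul_eq]
  exact CfsgLib.Forms.spOfEquiv_mulVec _ (sympForm_projEquiv g) w

theorem toSp_bijective [Finite F] : Function.Bijective (toSp (F := F) (m := m)) := by
  refine ⟨(injective_iff_map_eq_one _).2 fun g hg => orth_ext fun v => ?_, fun h => ?_⟩
  · have hp : ∀ w, projW g w = w := fun w => by rw [← toSp_smul, hg, one_smul]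
    have h2 : ∀ w, (g : _ ≃ₗ[F] Unit ⊕ (Fin m ⊕ Fin m) → F) (ovec (0 : F) w) (.inl ()) = 0 := fun w => by
      have h := orth_apply g (ovec 0 w)
      rw [apply_ovec g 0 w, qOdd_ovec, qOdd_ovec,
        show (fun i => (g : _ ≃ₗ[F] Unit ⊕ (Fin m ⊕ Fin m) → F) (ovec 0 w) (.inr i)) = w from hp w]
        at h
      simpa using h
    rw [← ovec_eta v, apply_ovec, h2, add_zero, orth_one_apply]
    exact congrArg _ (hp _)
  · let r : F → F := fun x => (frobeniusEquiv F 2).symm x
    have hr : ∀ x, r x ^ 2 = x := fun x => frobeniusEquiv_symm_pow_p F 2 x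
    have r_eq : ∀ x y : F, y ^ 2 = x → r x = y := fun x y h => by
      apply frobenius_inj F 2
      rw [frobenius_def, frobenius_def, hr, h]
    let φ : (Fin m ⊕ Fin m → F) →ₗ[F] F :=
      { toFun := fun w => r (hyp (h • w) + hyp w)
        map_add' := fun w w' => by
          refine r_eq _ _ ?_
          rw [CharTwo.add_sq, hr, hr, smul_add, hyp_add, hyp_add,
            CfsgLib.ClassicalLinear.sympForm_smul]
          linear_combination -(CharTwo.add_self_eq_zero (Cfsg.sympForm m F w w'))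
        map_smul' := fun c w => by
          refine r_eq _ _ ?_
          rw [RingHom.id_apply, smul_eq_mul, mul_pow, hr, smul_comm h c w, hyp_smul, hyp_smul]
          ring }
    have hφ : ∀ w, φ w ^ 2 = hyp (h • w) + hyp w := fun w => hr _
    let tail : (Unit ⊕ (Fin m ⊕ Fin m) → F) →ₗ[F] (Fin m ⊕ Fin m → F) :=
      LinearMap.funLeft F F Sum.inr
    let L : (Unit ⊕ (Fin m ⊕ Fin m) → F) →ₗ[F] (Unit ⊕ (Fin m ⊕ Fin m) → F) :=
      { toFun := fun v => ovec (v (.inl ()) + φ (tail v)) (h • tail v)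
        map_add' := fun v v' => by
          rw [ovec_add, map_add, map_add, smul_add, Pi.add_apply]
          congr 1; ring
        map_smul' := fun c v => by
          rw [RingHom.id_apply, ovec_smul, map_smul, map_smul, Pi.smul_apply, smul_comm h c]
          simp [mul_add] }
    have hinj : Function.Injective L := by
      rw [injective_iff_map_eq_zero]
      intro v hv
      have h1 : tail v = 0 := by
        have : h • tail v = 0 := funext fun i => congrFun hv (.inr i)
        exact (smul_eq_zero_iff_eq h).1 this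
      have h2 : v (.inl ()) = 0 := by
        have : v (.inl ()) + φ (tail v) = 0 := congrFun hv (.inl ())
        rwa [h1, map_zero, add_zero] at this
      rw [← ovec_eta v, h2]
      funext i
      rcases i with i | i
      · rfl
      · exact congrFun h1 i
    have hQ : ∀ v, qOdd m F (LinearEquiv.ofInjectiveEndo L hinj v) = qOdd m F v := fun v => by
      show qOdd m F (L v) = _
      conv_rhs => rw [← ovec_eta v, qOdd_ovec]
      show qOdd m F (ovec _ _) = _
      rw [qOdd_ovec, CharTwo.add_sq, hφ]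
      show v (.inl ()) ^ 2 + (hyp (h • tail v) + hyp (tail v)) + hyp (h • tail v)
        = v (.inl ()) ^ 2 + hyp (tail v)
      linear_combination CharTwo.add_self_eq_zero (hyp (h • tail v))
    refine ⟨⟨LinearEquiv.ofInjectiveEndo L hinj, hQ⟩, CfsgLib.ClassicalLinear.sp_ext fun w => ?_⟩
    rw [toSp_smul]
    rfl

end CfsgLib.ClassicalForms
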